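import Cfsg.Agent.H272.RC.LyT
import Cfsg.Agent.H272.RC.Good
import Cfsg.Agent.H668.Ly.LyCent
import Cfsg.Agent.H438.Fpr.LyC
import Cfsg.Agent.H314.LyOrb.NSeven
import Cfsg.Agent.H215.CC.LyThirtySeven
import Cfsg.Agent.TypeM.OutLyFin

/-!
# Regular cycles (S3509): the row of the Lyons group (helper272)

* `pair_two`   : no cover by an involution and a commuting element of odd prime order;
* `pair_three` : no cover by an element of order 3 and a commuting element of prime order `≥ 5`;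
* `triple`     : no cover by commuting elements of orders `2, 3, p`, `p ≥ 5`;
* `one_big`    : commuting elements of different prime orders `≥ 5` do not exist;
* **`noCov_ly`**, **`rc_ly`**.
-/

set_option autoImplicit false
open Cfsg

namespace Cfsg.Agent.H272.RCly

open Subgroup MulAction
open Cfsg.Agent.H106.RC Cfsg.Agent.H867.RC Cfsg.Agent.TypeM.Two
open Cfsg.Agent.H995.CopEngine (AllKnown)

theorem cc_comm {G : Type*} [Group G] {w y : G} (hyw : y * w = w * y) {u : G}
    (hu : u ∈ Cc (fun c => c * w = w * c) y) : u * w = w * u := by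
  have hPm : ∀ a b : G, a * w = w * a → b * w = w * b → a * b * w = w * (a * b) := fun a b ha hb => by
    rw [mul_assoc, hb, ← mul_assoc, ha, mul_assoc]
  have h1 : Cc (fun c => c * w = w * c) y ≤ centralizer ({w} : Set G) := by
    rw [Cc, closure_le]
    rintro _ ⟨c, hc, rfl⟩
    refine mem_centralizer_singleton_iff.2 ?_
    refine hPm _ _ (hPm _ _ hc hyw) ?_
    rw [inv_mul_eq_iff_eq_mul, ← mul_assoc, hc, mul_inv_cancel_right]
  exact mem_centralizer_singleton_iff.1 (h1 hu)

theorem ne_of_order {G : Type*} [Group G] {y : G} {p : ℕ} (hp : p.Prime) (hy : orderOf y = p) : y ≠ 1 := by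
  rintro rfl
  rw [orderOf_one] at hy
  exact hp.one_lt.ne hy

section covers

variable {Ω : Type} [MulAction Spor.Ly Ω] [Nonempty Ω] {N : Subgroup Spor.Ly}

theorem pair_two (hE : Env Spor.Ly Ω N) {t y : Spor.Ly} (ht2 : t * t = 1) (ht1 : t ≠ 1) {p : ℕ} (hp : p.Prime)
    (hp2 : p ≠ 2) (hy : orderOf y = p) (hyt : y * t = t * y) (hc : ∀ ω : Ω, t • ω = ω ∨ y • ω = ω) : False := by
  obtain ⟨M⟩ := TypeM.FactsLy.exists_mt_ly
  obtain ⟨L, rfl⟩ := M.exists_rebase ht2 ht1
  exact rulePair hE ht1 hc (t_mem_pair L (hp.odd_of_ne_two hp2) (by rw [← hy, pow_orderOf_eq_one]) (ne_of_order hp hy) hyt)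

theorem pair_three (hE : Env Spor.Ly Ω N) {w y : Spor.Ly} (hw : orderOf w = 3) {p : ℕ} (hp : p.Prime)
    (h5 : 5 ≤ p) (hy : orderOf y = p) (hyw : y * w = w * y) (hc : ∀ ω : Ω, w • ω = ω ∨ y • ω = ω) : False := by
  have hfin : Finite Spor.Ly := Cfsg.Agent.Ly.Setup.finite_ly
  have h2F : Fact (Nat.Prime 2) := ⟨Nat.prime_two⟩
  obtain ⟨M⟩ := TypeM.FactsLy.exists_mt_ly
  have hw3 : w ^ 3 = 1 := by rw [← hw, pow_orderOf_eq_one]
  have hw1 : w ≠ 1 := ne_of_order Nat.prime_three hw
  have hyp : ∀ {y : Spor.Ly}, orderOf y = p → y ^ p = 1 := fun h => by rw [← h, pow_orderOf_eq_one]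
  obtain ⟨t, ht⟩ := exists_prime_orderOf_dvd_card' (G := centralizer ({w} : Set Spor.Ly)) 2
    (dvd_trans (by norm_num) (H668.Ly.four_dvd M hw))
  obtain ⟨ht2, ht1⟩ := MT.sq_of_orderOf ht
  obtain ⟨L, hL⟩ := M.exists_rebase (s := (t : Spor.Ly)) (congrArg Subtype.val ht2) fun h => ht1 (Subtype.ext h)
  have htw : L.t * w = w * L.t := by
    rw [hL]
    exact mem_centralizer_singleton_iff.1 t.2
  obtain ⟨s, hs2, hs1, hst, hst', hsw⟩ := exists_four L hw3 hw1 htw.symm
  rcases exists_good hp hy hyw L.t_mul_t hs2 hst'.symm L.t_ne hs1 hst.symm htw hsw with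
    ⟨u, hu, huu, hu1⟩ | ⟨v, y₁, hy₁, ho, hvv, hv1, hvw, hyv⟩
  · have h1 := pair_mv hc hu
    exact pair_two hE huu hu1 Nat.prime_three (by norm_num) hw (cc_comm hyw hu).symm fun ω => (h1 ω).symm
  · have h1 := pair_mv hc hy₁
    obtain ⟨L', rfl⟩ := M.exists_rebase hvv hv1
    have h2 := t_mem_triple L' hp h5 hw3 hw1 (hyp ho) (ne_of_order hp ho) hvw.symm hyv (cc_comm hyw hy₁).symm
    have h3 : L'.t ∈ Cc (fun c => c * y₁ = y₁ * c) w := cc_mono (fun c hc => hc.2) w h2
    have h4 := pair_mv (fun ω => (h1 ω).symm) h3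
    exact pair_two hE L'.t_mul_t L'.t_ne hp (by omega) ho hyv fun ω => (h4 ω).symm

theorem triple (hE : Env Spor.Ly Ω N) {t w y : Spor.Ly} (ht : orderOf t = 2) (hw : orderOf w = 3) {p : ℕ}
    (hp : p.Prime) (h5 : 5 ≤ p) (hy : orderOf y = p) (hyt : y * t = t * y) (hwt : w * t = t * w) (hwy : w * y = y * w)
    (hc : ∀ ω : Ω, t • ω = ω ∨ w • ω = ω ∨ y • ω = ω) : False := by
  obtain ⟨M⟩ := TypeM.FactsLy.exists_mt_ly
  have hw3 : w ^ 3 = 1 := by rw [← hw, pow_orderOf_eq_one]
  have hw1 : w ≠ 1 := ne_of_order Nat.prime_three hw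
  obtain ⟨ht2, ht1⟩ := MT.sq_of_orderOf ht
  obtain ⟨L, rfl⟩ := M.exists_rebase ht2 ht1
  have h2 := t_mem_triple L hp h5 hw3 hw1 (by rw [← hy, pow_orderOf_eq_one]) (ne_of_order hp hy) hwt hyt hwy
  refine pair_two hE ht2 ht1 hp (by omega) hy hyt fun ω => ?_
  by_contra hω
  rw [not_or] at hω
  have h3 : Cc (fun c => c * L.t = L.t * c ∧ c * y = y * c) w ≤ stabilizer Spor.Ly ω := by
    rw [Cc, closure_le]
    rintro _ ⟨c, ⟨hc1, hc2⟩, rfl⟩
    have key : ∀ z : Spor.Ly, c * z = z * c → z • ω ≠ ω → z • c⁻¹ • ω ≠ c⁻¹ • ω := by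
      intro z hz h h3
      apply h
      rw [smul_smul, ← (show c⁻¹ * z = z * c⁻¹ by
        rw [inv_mul_eq_iff_eq_mul, ← mul_assoc, hz, mul_inv_cancel_right]), mul_smul] at h3
      exact smul_left_cancel _ h3
    have h4 := ((hc (c⁻¹ • ω)).resolve_left (key _ hc1 hω.1)).resolve_right (key _ hc2 hω.2)
    change (c * w * c⁻¹) • ω = ω
    rw [mul_smul, mul_smul, h4, smul_inv_smul]
  exact hω.1 (h3 h2)

end covers

/-- elements of order `≥ 7` -/
theorem not_big (hK : AllKnown.{0}) {x y : Spor.Ly} {p q : ℕ} (hp : p.Prime) (hq : q.Prime) (hx : orderOf x = p)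
    (hy : orderOf y = q) (hyx : y * x = x * y) (h7 : 7 ≤ p) (h5 : 5 ≤ q) (hpq : p ≠ q) : False := by
  have hfin : Finite Spor.Ly := Cfsg.Agent.Ly.Setup.finite_ly
  have hly : Spor.IsoLy Spor.Ly := ⟨MulEquiv.refl _⟩
  have hyc : y ∈ centralizer ({x} : Set Spor.Ly) := mem_centralizer_singleton_iff.2 hyx
  have hd : q ∣ Nat.card (centralizer ({x} : Set Spor.Ly)) := by
    rw [← hy]
    exact Subgroup.orderOf_dvd_natCard _ hyc
  have hpr : p ∣ 51765179004000000 := by
    rw [← Cfsg.Agent.Ly.Setup.card_ly, ← hx]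
    exact orderOf_dvd_natCard x
  have self : ∀ {r : ℕ}, r.Prime → Nat.card (centralizer ({x} : Set Spor.Ly)) = r → p = r → False := fun hr h h1 => by
    rw [h] at hd
    exact hpq (h1.trans ((Nat.prime_dvd_prime_iff_eq hq hr).1 hd).symm)
  rcases H124.Cop.SCLy.prime_cases hp hpr with rfl | rfl | rfl | rfl | rfl | rfl | rfl | rfl
  · omega
  · omega
  · omega
  · have h1 : q ∣ 1008 := by
      rw [← H314.LyOrb.card_normalizer_seven hx, ← hy]
      refine Subgroup.orderOf_dvd_natCard _ (mem_normalizer_iff.2 fun z => ?_)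
      have h2 : y ∈ centralizer ((zpowers x : Subgroup Spor.Ly) : Set Spor.Ly) := by
        rw [H715.Fpr.cent_zpowers']
        exact hyc
      exact mem_normalizer_iff.1 (centralizer_le_normalizer _ h2) z
    have h2 : q ∣ 2 ^ 4 * (3 ^ 2 * 7) := h1
    rcases hq.dvd_mul.1 h2 with h | h
    · have := (Nat.prime_dvd_prime_iff_eq hq Nat.prime_two).1 (hq.dvd_of_dvd_pow h)
      omega
    rcases hq.dvd_mul.1 h with h | h
    · have := (Nat.prime_dvd_prime_iff_eq hq Nat.prime_three).1 (hq.dvd_of_dvd_pow h)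
      omega
    · exact hpq ((Nat.prime_dvd_prime_iff_eq hq (by norm_num)).1 h).symm
  · have h2 : q ∣ 2 * (3 * 11) := hd.trans (H438.Fpr.Ly.cent11 hx)
    rcases hq.dvd_mul.1 h2 with h | h
    · have := (Nat.prime_dvd_prime_iff_eq hq Nat.prime_two).1 h
      omega
    rcases hq.dvd_mul.1 h with h | h
    · have := (Nat.prime_dvd_prime_iff_eq hq Nat.prime_three).1 h
      omega
    · exact hpq ((Nat.prime_dvd_prime_iff_eq hq (by norm_num)).1 h).symm
  · refine self (by norm_num) ?_ rfl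
    rw [← H715.Fpr.cent_zpowers']
    exact H438.Fpr.Ly.cent31 (by rw [Nat.card_zpowers, hx])
  · exact self (by norm_num) (H215.CC.LyThirtySeven.card_centralizer hK hly hx) rfl
  · exact self (by norm_num) (H655.LySixtySeven.card_centralizer hK hly hx) rfl

theorem inner (α : MulAut Spor.Ly) : ∃ s, α = MulAut.conj s := by
  obtain ⟨s, hs⟩ := TypeM.OutLyFin.inner_ly α
  exact ⟨s, hs.symm⟩

/-- **the row of the Lyons group** -/
theorem noCov_ly (hK : AllKnown.{0}) : NoCov Spor.Ly := by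
  have hfin : Finite Spor.Ly := Cfsg.Agent.Ly.Setup.finite_ly
  refine noCov_of_inner inner ?_
  intro Ω _ _ _ hE ι _ x r hx hc _
  have hord : ∀ i, orderOf (x i) = r i := fun i => by
    have := Fact.mk (hx.prime i)
    exact orderOf_eq_prime (hx.pow i) (hx.ne i)
  have hbig : ∀ i j, 5 ≤ r i → 5 ≤ r j → i = j := by
    intro i j hi hj
    by_contra hij
    have hne : r i ≠ r j := fun h => hij (hx.inj h)
    have h6 : ∀ k, 5 ≤ r k → r k = 5 ∨ 7 ≤ r k := fun k hk => by
      rcases Nat.lt_or_ge (r k) 7 with h | h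
      · left
        have h1 := hx.prime k
        interval_cases r k
        · rfl
        · exact absurd h1 (by norm_num)
      · exact Or.inr h
    rcases h6 i hi with h | h
    · rcases h6 j hj with h' | h'
      · exact hne (h.trans h'.symm)
      · exact not_big hK (hx.prime j) (hx.prime i) (hord j) (hord i) (hx.comm i j) h' hi hne.symm
    · exact not_big hK (hx.prime i) (hx.prime j) (hord i) (hord j) (hx.comm j i) h hj hne
  have hsmall : ∀ i, ¬ 5 ≤ r i → r i = 2 ∨ r i = 3 := fun i hi => by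
    have h1 := hx.prime i
    have h2 := h1.two_le
    have h3 : r i < 5 := by omega
    interval_cases r i
    · exact Or.inl rfl
    · exact Or.inr rfl
    · exact absurd h1 (by norm_num)
  have htwo : ∀ i, ∃ j, j ≠ i := fun i => hc.two hE hx.ne i
  have hsq : ∀ i, r i = 2 → x i * x i = 1 := fun i hi => by
    have := hx.pow i
    rwa [hi, pow_two] at this
  by_cases H5 : ∃ k, 5 ≤ r k
  · obtain ⟨k, hk⟩ := H5
    have hcase : ∀ l, r l = 2 ∨ r l = 3 ∨ l = k := fun l => by
      by_cases hl : 5 ≤ r l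
      · exact Or.inr (Or.inr (hbig l k hl hk))
      · rcases hsmall l hl with h | h
        · exact Or.inl h
        · exact Or.inr (Or.inl h)
    by_cases H2 : ∃ i, r i = 2
    · obtain ⟨i, hi⟩ := H2
      by_cases H3 : ∃ j, r j = 3
      · obtain ⟨j, hj⟩ := H3
        refine triple hE (t := x i) (w := x j) (y := x k) ((hord i).trans hi) ((hord j).trans hj) (hx.prime k) hk
          (hord k) (hx.comm _ _) (hx.comm _ _) (hx.comm _ _) fun ω => ?_
        obtain ⟨l, hl⟩ := hc ω
        rcases hcase l with h | h | h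
        · rw [hx.inj (h.trans hi.symm)] at hl
          exact Or.inl hl
        · rw [hx.inj (h.trans hj.symm)] at hl
          exact Or.inr (Or.inl hl)
        · rw [h] at hl
          exact Or.inr (Or.inr hl)
      · refine pair_two hE (hsq i hi) (hx.ne i) (hx.prime k) (by omega) (hord k) (hx.comm k i) fun ω => ?_
        obtain ⟨l, hl⟩ := hc ω
        rcases hcase l with h | h | h
        · rw [hx.inj (h.trans hi.symm)] at hl
          exact Or.inl hl
        · exact absurd ⟨l, h⟩ H3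
        · rw [h] at hl
          exact Or.inr hl
    · by_cases H3 : ∃ j, r j = 3
      · obtain ⟨j, hj⟩ := H3
        refine pair_three hE ((hord j).trans hj) (hx.prime k) hk (hord k) (hx.comm k j) fun ω => ?_
        obtain ⟨l, hl⟩ := hc ω
        rcases hcase l with h | h | h
        · exact absurd ⟨l, h⟩ H2
        · rw [hx.inj (h.trans hj.symm)] at hl
          exact Or.inl hl
        · rw [h] at hl
          exact Or.inr hl
      · obtain ⟨l, hl⟩ := htwo k
        rcases hcase l with h | h | h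
        · exact H2 ⟨l, h⟩
        · exact H3 ⟨l, h⟩
        · exact hl h
  · have hcase : ∀ l, r l = 2 ∨ r l = 3 := fun l => hsmall l fun h => H5 ⟨l, h⟩
    have hex : ∃ i j, r i = 2 ∧ r j = 3 := by
      obtain ⟨ω⟩ := (inferInstance : Nonempty Ω)
      obtain ⟨i, -⟩ := hc ω
      obtain ⟨j, hj⟩ := htwo i
      rcases hcase i with h | h
      · rcases hcase j with h' | h'
        · exact absurd (hx.inj (h'.trans h.symm)) hj
        · exact ⟨i, j, h, h'⟩
      · rcases hcase j with h' | h'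
        · exact ⟨j, i, h', h⟩
        · exact absurd (hx.inj (h'.trans h.symm)) hj
    obtain ⟨i, j, hi, hj⟩ := hex
    refine pair_two hE (hsq i hi) (hx.ne i) (hx.prime j) (by omega) (hord j) (hx.comm j i) fun ω => ?_
    obtain ⟨l, hl⟩ := hc ω
    rcases hcase l with h | h
    · rw [hx.inj (h.trans hi.symm)] at hl
      exact Or.inl hl
    · rw [hx.inj (h.trans hj.symm)] at hl
      exact Or.inr hl

/-- **regular cycles for the Lyons group** -/
theorem rc_ly (hK : AllKnown.{0}) {S : Type} [Group S] (h : Spor.IsoLy S) : RC S := by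
  have hfin : Finite Spor.Ly := Cfsg.Agent.Ly.Setup.finite_ly
  obtain ⟨e⟩ := h
  refine RC.congr e.symm (rc_of_noCov Cfsg.Agent.Ly.Setup.isSimple_ly ?_ (noCov_ly hK))
  intro hcom
  obtain ⟨M⟩ := TypeM.FactsLy.exists_mt_ly
  have h1 : ∀ s : Spor.Ly, s * s = 1 → s = 1 ∨ s = M.t := by
    intro s hs
    by_cases hs1 : s = 1
    · exact Or.inl hs1
    · obtain ⟨g, hg⟩ := M.one s hs hs1
      right
      rw [← hg, hcom.is_comm.comm g M.t, mul_inv_cancel_right]
  obtain ⟨w, hw⟩ : ∃ w : Spor.Ly, orderOf w = 3 := by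
    have := Fact.mk Nat.prime_three
    exact exists_prime_orderOf_dvd_card' 3 (by rw [Cfsg.Agent.Ly.Setup.card_ly]; norm_num)
  obtain ⟨s, hs2, hs1, hst, -, -⟩ := exists_four M (w := w) (by rw [← hw, pow_orderOf_eq_one])
    (ne_of_order Nat.prime_three hw) (hcom.is_comm.comm w M.t)
  rcases h1 s hs2 with h | h
  · exact hs1 h
  · exact hst h

end Cfsg.Agent.H272.RCly
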